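import Mathlib
import Cfsg.Prelude.Def_Perm

/-!
Permutation modules of prime power degree in characteristic `p`.
-/

namespace CfsgLib.PermModule

open MulAction

/-- A Sylow `p`-subgroup of a transitive group of degree `p ^ f` is transitive. -/
theorem sylow_isPretransitive {G : Type*} [Group G] [Finite G] {p f : ℕ} [Fact p.Prime]
    {Ω : Type*} [Finite Ω] [MulAction G Ω] [IsPretransitive G Ω]
    (hcard : Nat.card Ω = p ^ f) (P : Sylow p G) (a : Ω) :
    ∀ b : Ω, ∃ g ∈ (P : Subgroup G), g • a = b := by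
  classical
  set Ga := stabilizer G a with hGa
  have hidx : Ga.index = p ^ f := by rw [hGa, MulAction.index_stabilizer_of_transitive G a, hcard]
  obtain ⟨v, hv⟩ := IsPGroup.iff_card.mp P.2
  have hGdvd : Nat.card Ga * p ^ f = Nat.card G := by rw [← hidx]; exact Ga.card_mul_index
  have horb : (orbit (P : Subgroup G) a).ncard = p ^ f := by
    refine le_antisymm ?_ ?_
    · rw [← hcard, ← Set.ncard_univ]
      exact Set.ncard_le_ncard (Set.subset_univ _)
    · rw [← index_stabilizer]
      set S := stabilizer (P : Subgroup G) a with hS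
      have hSmap : S.map (P : Subgroup G).subtype ≤ Ga := by
        rintro _ ⟨x, hx, rfl⟩
        exact hx
      obtain ⟨w, hw⟩ := IsPGroup.iff_card.mp (P.2.to_subgroup S)
      have h1 : p ^ w ∣ Nat.card Ga := by
        rw [← hw, ← Subgroup.card_map_of_injective (K := S) (P : Subgroup G).subtype_injective]
        exact Subgroup.card_dvd_of_le hSmap
      have h2 : p ^ (w + f) ∣ p ^ v := by
        rw [← hv, P.card_eq_multiplicity]
        refine pow_dvd_pow _ ((Nat.Prime.pow_dvd_iff_le_factorization Fact.out Nat.card_pos.ne').mp ?_)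
        rw [pow_add, ← hGdvd]
        exact mul_dvd_mul_right h1 _
      have h3 := S.card_mul_index
      rw [hw, hv] at h3
      have h4 : w + f ≤ v := (Nat.pow_dvd_pow_iff_le_right (Fact.out : p.Prime).one_lt).mp h2
      have hp0 : 0 < p ^ w := Nat.pow_pos (Fact.out : p.Prime).pos
      refine Nat.le_of_mul_le_mul_left ?_ hp0
      rw [h3, ← pow_add]
      exact Nat.pow_le_pow_right (Fact.out : p.Prime).pos h4
  intro b
  have huniv : orbit (P : Subgroup G) a = Set.univ :=
    Set.eq_of_subset_of_ncard_le (Set.subset_univ _) (by rw [Set.ncard_univ, hcard, horb])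
  obtain ⟨g, hg⟩ : b ∈ orbit (P : Subgroup G) a := huniv ▸ Set.mem_univ b
  exact ⟨g, g.2, hg⟩

theorem exists_fixed {P : Type*} [Group P] [Finite P] {p : ℕ} [Fact p.Prime] (hP : IsPGroup p P)
    {K M : Type*} [Field K] [CharP K p] [AddCommGroup M] [Module K M] (ρ : Representation K P M)
    (W : Submodule K M) (hW : ∀ g : P, ∀ w ∈ W, ρ g w ∈ W) (hW0 : W ≠ ⊥) :
    ∃ w ∈ W, w ≠ 0 ∧ ∀ g : P, ρ g w = w := by
  classical
  obtain ⟨w, hw, hw0⟩ := W.exists_mem_ne_zero_of_ne_bot hW0
  letI : Algebra (ZMod p) K := ZMod.algebra K p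
  letI : Module (ZMod p) M := Module.compHom M (algebraMap (ZMod p) K)
  haveI : IsScalarTower (ZMod p) K M := IsScalarTower.of_algebraMap_smul fun r m => rfl
  set S := Submodule.span (ZMod p) (Set.range fun g : P => ρ g w) with hS
  haveI : Module.Finite (ZMod p) S := Module.Finite.span_of_finite _ (Set.finite_range _)
  haveI : Finite S := Module.finite_of_finite (ZMod p)
  have hSW : ∀ x ∈ S, x ∈ W := by
    intro x hx
    refine Submodule.span_induction (p := fun x _ => x ∈ W) ?_ W.zero_mem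
      (fun _ _ _ _ => W.add_mem) ?_ hx
    · rintro _ ⟨g, rfl⟩
      exact hW g w hw
    · intro r x _ hx
      rw [← IsScalarTower.algebraMap_smul K r x]
      exact W.smul_mem _ hx
  have hSinv : ∀ g : P, ∀ x ∈ S, ρ g x ∈ S := by
    intro g x hx
    refine Submodule.span_induction (p := fun x _ => ρ g x ∈ S) ?_ ?_ ?_ ?_ hx
    · rintro _ ⟨h, rfl⟩
      refine Submodule.subset_span ⟨g * h, ?_⟩
      show ρ (g * h) w = ρ g (ρ h w)
      rw [map_mul, Module.End.mul_apply]
    · rw [map_zero]; exact S.zero_mem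
    · intro a b _ _ ha hb
      rw [map_add]; exact S.add_mem ha hb
    · intro r x _ hx
      rw [← IsScalarTower.algebraMap_smul K r x, map_smul, IsScalarTower.algebraMap_smul]
      exact S.smul_mem _ hx
  letI : MulAction P S :=
    { smul := fun g x => ⟨ρ g x.1, hSinv g x.1 x.2⟩
      one_smul := fun x => Subtype.ext (by show ρ 1 x.1 = x.1; rw [map_one]; rfl)
      mul_smul := fun g h x => Subtype.ext (by
        show ρ (g * h) x.1 = ρ g (ρ h x.1); rw [map_mul, Module.End.mul_apply]) }
  have hwS : w ∈ S := Submodule.subset_span ⟨1, by simp⟩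
  have hdvd : p ∣ Nat.card S := by
    haveI : Nontrivial S := ⟨⟨⟨w, hwS⟩, 0, fun h => hw0 (congrArg Subtype.val h)⟩⟩
    rw [Module.natCard_eq_pow_finrank (K := ZMod p) (V := S), Nat.card_zmod]
    exact dvd_pow_self p (Module.finrank_pos).ne'
  have hmod := hP.card_modEq_card_fixedPoints S
  have h0 : p ∣ Nat.card (fixedPoints P S) := Nat.modEq_zero_iff_dvd.mp
    (hmod.symm.trans (Nat.modEq_zero_iff_dvd.mpr hdvd))
  have hz : (⟨0, S.zero_mem⟩ : S) ∈ fixedPoints P S := fun g => Subtype.ext (map_zero (ρ g))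
  haveI : Nonempty (fixedPoints P S) := ⟨⟨_, hz⟩⟩
  have h1 : 1 < Nat.card (fixedPoints P S) :=
    lt_of_lt_of_le (Fact.out : p.Prime).one_lt (Nat.le_of_dvd Nat.card_pos h0)
  haveI : Finite (fixedPoints P S) := inferInstance
  haveI : Nontrivial (fixedPoints P S) := Finite.one_lt_card_iff_nontrivial.mp h1
  obtain ⟨⟨x, hx⟩, hne⟩ := exists_ne (⟨_, hz⟩ : fixedPoints P S)
  refine ⟨x.1, hSW _ x.2, fun h => hne (Subtype.ext (Subtype.ext h)), fun g => ?_⟩
  exact congrArg Subtype.val (hx g)

variable {G : Type*} [Group G] [Finite G] {K : Type*} [Field K] {p f : ℕ} [Fact p.Prime] [CharP K p]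
  {Ω : Type*} [Fintype Ω] [MulAction G Ω] [IsPretransitive G Ω]

theorem const_mem_of_ne_bot (hcard : Fintype.card Ω = p ^ f) (W : Submodule K (Ω → K))
    (hW : ∀ g : G, ∀ w ∈ W, (fun x => w (g⁻¹ • x)) ∈ W) (hW0 : W ≠ ⊥) :
    (fun _ => (1 : K)) ∈ W := by
  obtain ⟨P⟩ : Nonempty (Sylow p G) := inferInstance
  obtain ⟨w, hw, hw0, hfix⟩ := exists_fixed P.2 ((Cfsg.permRep K G Ω).comp (P : Subgroup G).subtype)
    W (fun g => hW g) hW0
  obtain ⟨a, ha⟩ : ∃ a, w a ≠ 0 := by
    by_contra h
    push Not at h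
    exact hw0 (funext h)
  have hconst : ∀ b, w b = w a := by
    intro b
    obtain ⟨g, hg, hgb⟩ := sylow_isPretransitive
      (by rw [Nat.card_eq_fintype_card, hcard]) P b a
    have := congrFun (hfix ⟨g, hg⟩) a
    change w (g⁻¹ • a) = w a at this
    rwa [← hgb, inv_smul_smul, hgb] at this
  have : (fun _ => (1 : K)) = (w a)⁻¹ • w := by
    funext b
    rw [Pi.smul_apply, smul_eq_mul, hconst b, inv_mul_cancel₀ ha]
  rw [this]
  exact W.smul_mem _ hw

theorem sum_eq_zero_of_ne_top (hcard : Fintype.card Ω = p ^ f) (U : Submodule K (Ω → K))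
    (hU : ∀ g : G, ∀ w ∈ U, (fun x => w (g⁻¹ • x)) ∈ U) (hUtop : U ≠ ⊤) :
    ∀ u ∈ U, ∑ x, u x = 0 := by
  classical
  let W : Submodule K (Ω → K) :=
    { carrier := {h | ∀ u ∈ U, ∑ x, h x * u x = 0}
      add_mem' := fun {a b} ha hb u hu => by
        simp only [Pi.add_apply, add_mul, Finset.sum_add_distrib, ha u hu, hb u hu, add_zero]
      zero_mem' := fun u _ => by simp
      smul_mem' := fun c a ha u hu => by
        simp only [Pi.smul_apply, smul_eq_mul, mul_assoc, ← Finset.mul_sum, ha u hu, mul_zero] }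
  have hW : ∀ g : G, ∀ w ∈ W, (fun x => w (g⁻¹ • x)) ∈ W := by
    intro g w hw u hu
    have := hw _ (hU g⁻¹ u hu)
    rw [← this]
    exact Fintype.sum_equiv (MulAction.toPerm g⁻¹) _ _ (fun x => by simp)
  have hW0 : W ≠ ⊥ := by
    obtain ⟨φ, hφ, hφU⟩ := Submodule.exists_dual_map_eq_bot_of_lt_top (lt_top_iff_ne_top.mpr hUtop)
      inferInstance
    intro hbot
    have key : ∀ u : Ω → K, φ u = ∑ x, φ (Pi.single x 1) * u x := by
      intro u
      conv_lhs => rw [pi_eq_sum_univ' u]
      rw [map_sum]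
      refine Finset.sum_congr rfl fun x _ => ?_
      rw [map_smul, smul_eq_mul, mul_comm]
    have hmem : (fun x => φ (Pi.single x 1)) ∈ W := by
      intro u hu
      rw [← key u]
      have : φ u ∈ U.map φ := ⟨u, hu, rfl⟩
      rwa [hφU, Submodule.mem_bot] at this
    rw [hbot, Submodule.mem_bot] at hmem
    apply hφ
    refine LinearMap.ext fun u => ?_
    rw [key u, LinearMap.zero_apply]
    exact Finset.sum_eq_zero fun x _ => by
      rw [show φ (Pi.single x 1) = 0 from congrFun hmem x, zero_mul]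
  intro u hu
  simpa using const_mem_of_ne_bot hcard W hW hW0 u hu

end CfsgLib.PermModule
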